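import Cfsg.Agent.Lib.Helper19.TC2R
import Cfsg.Agent.Lib.Helper19.TCB

/-! A step of a chain of lower bounds for a permutation group given by packed tables. -/

set_option autoImplicit false

namespace Cfsg.Agent.Lib.Helper19.Sp4

open Cfsg.Agent.Lib.Helper19.TCS
open Cfsg.Agent.Lib.Helper19.TC2 (KW KW_mono mem_KW card_ge_of_orbit evn_append)

variable {B : ParB} {el : ℕ → Equiv.Perm (Fin B.N)} {L : ℕ}

/-- the word of a path -/
def flat (ws : List (List ℕ)) (p : List ℕ) : List ℕ := (p.map (selW ws)).flatten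

theorem flat_lt {ws : List (List ℕ)} (hJ : ∀ w ∈ ws, ∀ k ∈ w, k < L) (p : List ℕ) :
    ∀ k ∈ flat ws p, k < L := by
  intro k hk
  unfold flat at hk
  rw [List.mem_flatten] at hk
  obtain ⟨w, hw, hkw⟩ := hk
  rw [List.mem_map] at hw
  obtain ⟨a, _, rfl⟩ := hw
  rcases selW_prop ws a with h | h
  · exact hJ _ h k hkw
  · rw [h] at hkw; simp at hkw

theorem flat_mem (ws : List (List ℕ)) (p : List ℕ) : evn el (flat ws p) ∈ KW el ws := by
  induction p with
  | nil => simpa [flat, evn] using (KW el ws).one_mem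
  | cons a p ih =>
    have e : flat ws (a :: p) = selW ws a ++ flat ws p := by simp [flat]
    rw [e, evn_append]
    apply (KW el ws).mul_mem _ ih
    rcases selW_prop ws a with h | h
    · exact mem_KW el h
    · rw [h]; simpa [evn] using (KW el ws).one_mem

theorem el_evn (hel : ∀ k < L, ∀ i : Fin B.N, (el k i).1 = fB B k i.1) (l : List ℕ)
    (hl : ∀ k ∈ l, k < L) (i : Fin B.N) : (evn el l i).1 = app B l i.1 :=
  psi_evn (MonoidHom.id _) hel l hl i

theorem lb_step (hel : ∀ k < L, ∀ i : Fin B.N, (el k i).1 = fB B k i.1)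
    (ws ws' : List (List ℕ)) (hJ : ∀ w ∈ ws, ∀ k ∈ w, k < L) (hsub : ∀ w ∈ ws', w ∈ ws)
    (β : ℕ) (hβ : β < B.N) (hf : ∀ w ∈ ws', app B w β = β)
    (paths : List (List ℕ)) (n : ℕ) (hlen : paths.length = n)
    (hnd : (paths.map (fun p => app B (flat ws p) β)).Nodup) :
    n * Nat.card (KW el ws') ≤ Nat.card (KW el ws) := by
  classical
  let βf : Fin B.N := ⟨β, hβ⟩
  let l : List (Fin B.N) := paths.map (fun p => evn el (flat ws p) βf)
  have hl : l.Nodup := by
    apply List.Nodup.of_map Fin.val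
    have : l.map Fin.val = paths.map (fun p => app B (flat ws p) β) := by
      rw [List.map_map]
      apply List.map_congr_left
      intro p _
      exact el_evn hel _ (flat_lt hJ p) βf
    rw [this]
    exact hnd
  have hc : l.toFinset.card = n := by
    rw [List.toFinset_card_of_nodup hl, List.length_map, hlen]
  rw [← hc]
  apply card_ge_of_orbit (MonoidHom.id _) (KW el ws) (KW el ws') (KW_mono el hsub) βf
  · apply fix_of_closure
    rintro _ ⟨w, hw, rfl⟩
    apply Fin.ext
    show (evn el w βf).1 = β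
    rw [el_evn hel w (hJ w (hsub w hw)), hf w hw]
  · intro y hy
    rw [List.mem_toFinset, List.mem_map] at hy
    obtain ⟨p, _, rfl⟩ := hy
    exact ⟨_, flat_mem ws p, rfl⟩

end Cfsg.Agent.Lib.Helper19.Sp4
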