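import Mathlib

/-! Abstract lemmas: the action of the normaliser of a finite family by conjugation,
and the identification of a subgroup of index two by counting. -/

set_option autoImplicit false

namespace Cfsg.Agent.Lib.Helper19.Sp4

section nzr
variable {G X : Type*} [Group G] [Finite X] (T : X → G) (hT : Function.Injective T)

include hT in
theorem nzr_inv {g : G} (h : ∀ j, ∃ k, g * T j * g⁻¹ = T k) : ∀ j, ∃ k, g⁻¹ * T j * g⁻¹⁻¹ = T k := by
  choose f hf using h
  have hinj : Function.Injective f := by
    intro a b hab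
    apply hT
    have h1 := hf a
    rw [hab, ← hf b] at h1
    exact mul_left_cancel (mul_right_cancel h1)
  have hsurj := Finite.injective_iff_surjective.1 hinj
  intro j
  obtain ⟨k, rfl⟩ := hsurj j
  refine ⟨k, ?_⟩
  rw [← hf k]
  group

/-- the elements permuting the family `T` under conjugation -/
def nzr : Subgroup G where
  carrier := {g | ∀ j, ∃ k, g * T j * g⁻¹ = T k}
  one_mem' := fun j => ⟨j, by simp⟩
  mul_mem' := by
    intro a b ha hb j
    obtain ⟨k, hk⟩ := hb j
    obtain ⟨l, hl⟩ := ha k
    refine ⟨l, ?_⟩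
    rw [← hl, ← hk]
    group
  inv_mem' := fun h => nzr_inv T hT h

noncomputable def actf (g : nzr T hT) (j : X) : X := (g.2 j).choose

theorem actf_spec (g : nzr T hT) (j : X) : T (actf T hT g j) = g.1 * T j * g.1⁻¹ :=
  ((g.2 j).choose_spec).symm

@[instance_reducible] noncomputable def nzrAct : MulAction (nzr T hT) X where
  smul := actf T hT
  one_smul j := hT (by
    show T (actf T hT 1 j) = T j
    rw [actf_spec T hT]; simp)
  mul_smul g h j := hT (by
    show T (actf T hT (g * h) j) = T (actf T hT g (actf T hT h j))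
    rw [actf_spec T hT, actf_spec T hT, actf_spec T hT]
    simp [mul_assoc])

/-- the permutation representation on the index set -/
noncomputable def rho : nzr T hT →* Equiv.Perm X :=
  @MulAction.toPermHom (nzr T hT) X _ (nzrAct T hT)

theorem rho_spec (g : nzr T hT) (j : X) : T (rho T hT g j) = g.1 * T j * g.1⁻¹ :=
  actf_spec T hT g j

theorem rho_eq (g : nzr T hT) (j k : X) (h : g.1 * T j = T k * g.1) : rho T hT g j = k := by
  apply hT
  rw [rho_spec T hT, h]
  group

end nzr

theorem index_two_of_count {H S X : Type*} [Group H] [Group S] [Finite H] [Finite X]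
    (ρ : H →* Equiv.Perm X) (σ : S →* Equiv.Perm X) (hσ : Function.Injective σ) (m : ℕ)
    (hm : 0 < m)
    (hS : Nat.card S = m) (hH : Nat.card H = 2 * m)
    (A : Subgroup (Equiv.Perm X)) (hA : m ≤ Nat.card A) (hAσ : A ≤ σ.range) (hAρ : A ≤ ρ.range)
    (h0 : H) (hh0 : ρ h0 ∉ σ.range) :
    ∃ N : Subgroup H, N.Normal ∧ N.index = 2 ∧ Nonempty (N ≃* S) := by
  classical
  have hcσ : Nat.card σ.range = m := by
    rw [← hS]
    exact (Nat.card_congr (MonoidHom.ofInjective hσ).toEquiv).symm
  have hAe : A = σ.range := Subgroup.eq_of_le_of_card_ge hAσ (by rw [hcσ]; exact hA)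
  have hle : σ.range ≤ ρ.range := hAe ▸ hAρ
  have hdvd : Nat.card σ.range ∣ Nat.card ρ.range := Subgroup.card_dvd_of_le hle
  have hne : Nat.card σ.range ≠ Nat.card ρ.range := by
    intro he
    have : σ.range = ρ.range := Subgroup.eq_of_le_of_card_ge hle (by rw [he])
    exact hh0 (this ▸ ⟨h0, rfl⟩)
  have hpos : 0 < Nat.card ρ.range := Nat.card_pos
  have hge : 2 * m ≤ Nat.card ρ.range := by
    rw [hcσ] at hdvd hne
    obtain ⟨c, hc⟩ := hdvd
    rw [hc] at hne hpos ⊢
    have : 2 ≤ c := by
      rcases c with _ | _ | c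
      · simp at hpos
      · simp at hne
      · omega
    calc 2 * m = m * 2 := by ring
      _ ≤ m * c := Nat.mul_le_mul_left _ this
  have hbij : Function.Bijective ρ.rangeRestrict := by
    rw [Nat.bijective_iff_surjective_and_card]
    refine ⟨ρ.rangeRestrict_surjective, ?_⟩
    apply le_antisymm
    · rw [hH]; exact hge
    · exact Nat.card_le_card_of_surjective _ ρ.rangeRestrict_surjective
  have hinj : Function.Injective ρ := by
    intro a b hab
    apply hbij.1
    exact Subtype.ext hab
  let N : Subgroup H := σ.range.comap ρ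
  let f : N →* σ.range := (ρ.comp N.subtype).codRestrict σ.range (fun x => x.2)
  have hf : Function.Bijective f := by
    constructor
    · intro a b hab
      apply Subtype.ext
      apply hinj
      exact congrArg Subtype.val hab
    · rintro ⟨y, hy⟩
      obtain ⟨x, rfl⟩ := hle hy
      exact ⟨⟨x, hy⟩, rfl⟩
  have e : N ≃* S := (MulEquiv.ofBijective f hf).trans (MonoidHom.ofInjective hσ).symm
  have hN : Nat.card N = m := by rw [← hS]; exact Nat.card_congr e.toEquiv
  have hidx : N.index = 2 := by
    have := N.index_mul_card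
    rw [hN, hH] at this
    exact Nat.eq_of_mul_eq_mul_right hm this
  exact ⟨N, Subgroup.normal_of_index_eq_two hidx, hidx, ⟨e⟩⟩

end Cfsg.Agent.Lib.Helper19.Sp4
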