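import Cfsg.Agent.Lib.Helper19.TCB

/-! Check functions for packed permutation tables. -/

set_option autoImplicit false

namespace Cfsg.Agent.Lib.Helper19.Sp4

open Cfsg.Agent.Lib.Helper19.TCS

/-- a packed table is an involution of `[0, N)` -/
def chkI (N w m t : ℕ) : Bool :=
  loop (fun i => and (Nat.blt (fld w m t i) N) (Nat.beq (fld w m t (fld w m t i)) i)) 0 N

theorem chkI_spec {N w m t : ℕ} (h : chkI N w m t = true) :
    ∀ i < N, fld w m t i < N ∧ fld w m t (fld w m t i) = i := by
  intro i hi
  have := loop_spec h i (Nat.zero_le _) (by omega)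
  rw [Bool.and_eq_true, blt_iff, Nat.beq_eq] at this
  exact this

/-- `h ∘ tj = tk ∘ h` for packed tables -/
def chkC (N w m h tj tk : ℕ) : Bool :=
  loop (fun x => Nat.beq (fld w m h (fld w m tj x)) (fld w m tk (fld w m h x))) 0 N

theorem chkC_spec {N w m h tj tk : ℕ} (hc : chkC N w m h tj tk = true) :
    ∀ x < N, fld w m h (fld w m tj x) = fld w m tk (fld w m h x) := by
  intro x hx
  have := loop_spec hc x (Nat.zero_le _) (by omega)
  rwa [Nat.beq_eq] at this

end Cfsg.Agent.Lib.Helper19.Sp4
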