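import Cfsg.Agent.Lib.Helper19.Sp4.DataT

/-! Generated file: checks. -/

set_option autoImplicit false
set_option maxRecDepth 1000000

namespace Cfsg.Agent.Lib.Helper19.Sp4

open Cfsg.Agent.Lib.Helper19.TCS

theorem okA_1_0 : loop (fun j => chkC 2058 12 4095 (selN cH.TB 1) (selN cT.TB j) (selN cT.TB (fB cR 1 j))) 0 64 = true := by decide +kernel
theorem okA_1_1 : loop (fun j => chkC 2058 12 4095 (selN cH.TB 1) (selN cT.TB j) (selN cT.TB (fB cR 1 j))) 64 64 = true := by decide +kernel
theorem okA_1_2 : loop (fun j => chkC 2058 12 4095 (selN cH.TB 1) (selN cT.TB j) (selN cT.TB (fB cR 1 j))) 128 64 = true := by decide +kernel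
theorem okA_1_3 : loop (fun j => chkC 2058 12 4095 (selN cH.TB 1) (selN cT.TB j) (selN cT.TB (fB cR 1 j))) 192 64 = true := by decide +kernel

end Cfsg.Agent.Lib.Helper19.Sp4
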