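import Cfsg.Agent.Lib.Helper19.Sp4.DataT

/-! Generated file: checks. -/

set_option autoImplicit false
set_option maxRecDepth 1000000

namespace Cfsg.Agent.Lib.Helper19.Sp4

open Cfsg.Agent.Lib.Helper19.TCS

theorem okT_0 : loop (fun j => chkI 2058 12 4095 (selN cT.TB j)) 0 64 = true := by decide +kernel
theorem okT_1 : loop (fun j => chkI 2058 12 4095 (selN cT.TB j)) 64 64 = true := by decide +kernel
theorem okT_2 : loop (fun j => chkI 2058 12 4095 (selN cT.TB j)) 128 64 = true := by decide +kernel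
theorem okT_3 : loop (fun j => chkI 2058 12 4095 (selN cT.TB j)) 192 64 = true := by decide +kernel
theorem okH_0 : loop (fun x => Nat.beq (app Hea.cB (selW Hea.sgw 0) x) (fB cH 0 x)) 0 2058 = true := by decide +kernel
theorem okH_1 : loop (fun x => Nat.beq (app Hea.cB (selW Hea.sgw 1) x) (fB cH 1 x)) 0 2058 = true := by decide +kernel
theorem okH_2 : loop (fun x => Nat.beq (app Hea.cB (selW Hea.sgw 2) x) (fB cH 2 x)) 0 2058 = true := by decide +kernel
theorem okH_3 : loop (fun x => Nat.beq (app Hea.cB (selW Hea.sgw 3) x) (fB cH 3 x)) 0 2058 = true := by decide +kernel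
theorem okH_4 : loop (fun x => Nat.beq (app Hea.cB (selW Hea.sgw 4) x) (fB cH 4 x)) 0 2058 = true := by decide +kernel
theorem okH_5 : loop (fun x => Nat.beq (app Hea.cB (selW Hea.sgw 5) x) (fB cH 5 x)) 0 2058 = true := by decide +kernel
theorem okH_6 : loop (fun x => Nat.beq (app Hea.cB (selW Hea.sgw 6) x) (fB cH 6 x)) 0 2058 = true := by decide +kernel

end Cfsg.Agent.Lib.Helper19.Sp4
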