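import Cfsg.Agent.Lib.Helper19.Sp4.DataS
import Cfsg.Agent.Lib.Helper19.Sp4.LB

/-! Checks on the small tables. -/

set_option autoImplicit false
set_option maxRecDepth 1000000

namespace Cfsg.Agent.Lib.Helper19.Sp4

open Cfsg.Agent.Lib.Helper19.TCS

theorem okP_c : loop (fun k => chkI 256 8 255 (selN cP.TB k)) 0 10 = true := by decide +kernel

theorem okS1 : loop (fun k => loop (fun j => Nat.beq (app cR (selW hw k) j) (fB cP k j)) 0 256) 0 10
    = true := by decide +kernel

def idx : I4 → ℕ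
  | .inl 0 => 0
  | .inl 1 => 1
  | .inr 0 => 2
  | .inr 1 => 3

def mat (c : ℕ) : Matrix I4 I4 K4 := fun i j => K4.ofN ((c >>> (2 * (4 * idx i + idx j))) % 4)

theorem mat_mem : ∀ k : Fin 10, mat (selN mc k.1) * Matrix.J (Fin 2) K4 * (mat (selN mc k.1)).transpose
    = Matrix.J (Fin 2) K4 := by decide +kernel

open Matrix in
theorem mat_act : ∀ k : Fin 10, ∀ j : Fin 256, (enc (mat (selN mc k.1) *ᵥ dec j)).1 = fB cP k.1 j.1 := by
  decide +kernel

theorem hJ0 : ∀ w ∈ ws0, ∀ k ∈ w, k < 10 := by decide +kernel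
theorem hs1 : ∀ w ∈ ws1, w ∈ ws0 := by decide +kernel
theorem hs2 : ∀ w ∈ ws2, w ∈ ws1 := by decide +kernel
theorem hs3 : ∀ w ∈ ws3, w ∈ ws2 := by decide +kernel
theorem hf1 : ∀ w ∈ ws1, app cP w 1 = 1 := by decide +kernel
theorem hf2 : ∀ w ∈ ws2, app cP w 16 = 16 := by decide +kernel
theorem hf3 : ∀ w ∈ ws3, app cP w 4 = 4 := by decide +kernel
theorem hl0 : pa0.length = 255 := by decide +kernel
theorem hl1 : pa1.length = 64 := by decide +kernel
theorem hl2 : pa2.length = 15 := by decide +kernel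
theorem hl3 : pa3.length = 4 := by decide +kernel
theorem hn0 : (pa0.map (fun p => app cP (flat ws0 p) 1)).Nodup := by decide +kernel
theorem hn1 : (pa1.map (fun p => app cP (flat ws1 p) 16)).Nodup := by decide +kernel
theorem hn2 : (pa2.map (fun p => app cP (flat ws2 p) 4)).Nodup := by decide +kernel
theorem hn3 : (pa3.map (fun p => app cP (flat ws3 p) 64)).Nodup := by decide +kernel

theorem scal_one : scal 1 = 2 := by decide +kernel
theorem r5_one : fB cR 5 1 = 1 := by decide +kernel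
theorem r5_two : fB cR 5 2 = 3 := by decide +kernel

end Cfsg.Agent.Lib.Helper19.Sp4
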