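import Mathlib

/-! The field with four elements, and the action of `Sp₄(4)` on the 256 coded vectors. -/

set_option autoImplicit false

namespace Cfsg.Agent.Lib.Helper19.Sp4

/-- the field with four elements: `0, 1, ω, ω²` -/
inductive K4 : Type
  | o | i | w | u
  deriving DecidableEq

instance : Fintype K4 := ⟨{.o, .i, .w, .u}, by intro x; cases x <;> decide⟩

namespace K4

def add : K4 → K4 → K4
  | .o, x => x
  | x, .o => x
  | .i, .i => .o
  | .i, .w => .u
  | .i, .u => .w
  | .w, .i => .u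
  | .w, .w => .o
  | .w, .u => .i
  | .u, .i => .w
  | .u, .w => .i
  | .u, .u => .o

def mul : K4 → K4 → K4
  | .o, _ => .o
  | _, .o => .o
  | .i, x => x
  | x, .i => x
  | .w, .w => .u
  | .w, .u => .i
  | .u, .w => .i
  | .u, .u => .w

def inv : K4 → K4
  | .o => .o
  | .i => .i
  | .w => .u
  | .u => .w

instance : Add K4 := ⟨add⟩
instance : Mul K4 := ⟨mul⟩
instance : Zero K4 := ⟨.o⟩
instance : One K4 := ⟨.i⟩
instance : Neg K4 := ⟨id⟩
instance : Inv K4 := ⟨inv⟩

theorem add_assoc' : ∀ a b c : K4, a + b + c = a + (b + c) := by decide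
theorem zero_add' : ∀ a : K4, 0 + a = a := by decide
theorem add_zero' : ∀ a : K4, a + 0 = a := by decide
theorem add_comm' : ∀ a b : K4, a + b = b + a := by decide
theorem neg_add' : ∀ a : K4, -a + a = 0 := by decide
theorem mul_assoc' : ∀ a b c : K4, a * b * c = a * (b * c) := by decide
theorem one_mul' : ∀ a : K4, 1 * a = a := by decide
theorem mul_one' : ∀ a : K4, a * 1 = a := by decide
theorem left_distrib' : ∀ a b c : K4, a * (b + c) = a * b + a * c := by decide
theorem right_distrib' : ∀ a b c : K4, (a + b) * c = a * c + b * c := by decide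
theorem zero_mul' : ∀ a : K4, 0 * a = 0 := by decide
theorem mul_zero' : ∀ a : K4, a * 0 = 0 := by decide
theorem mul_comm' : ∀ a b : K4, a * b = b * a := by decide
theorem mul_inv' : ∀ a : K4, a ≠ 0 → a * a⁻¹ = 1 := by decide

instance : Field K4 where
  add_assoc := add_assoc'
  zero_add := zero_add'
  add_zero := add_zero'
  add_comm := add_comm'
  neg_add_cancel := neg_add'
  mul_assoc := mul_assoc'
  one_mul := one_mul'
  mul_one := mul_one'
  left_distrib := left_distrib'
  right_distrib := right_distrib'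
  zero_mul := zero_mul'
  mul_zero := mul_zero'
  mul_comm := mul_comm'
  exists_pair_ne := ⟨.o, .i, by decide⟩
  mul_inv_cancel := mul_inv'
  inv_zero := rfl
  nsmul := nsmulRec
  zsmul := zsmulRec
  nnqsmul := _
  nnqsmul_def := fun _ _ => rfl
  qsmul := _
  qsmul_def := fun _ _ => rfl

theorem card : Fintype.card K4 = 4 := rfl

def n : K4 → ℕ
  | .o => 0
  | .i => 1
  | .w => 2
  | .u => 3

def ofN : ℕ → K4
  | 0 => .o
  | 1 => .i
  | 2 => .w
  | _ => .u

theorem ofN_n : ∀ a : K4, ofN (n a) = a := by decide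
theorem n_lt : ∀ a : K4, n a < 4 := by decide

end K4

abbrev I4 := Fin 2 ⊕ Fin 2
abbrev V4 := I4 → K4

def enc (v : V4) : Fin 256 :=
  ⟨(v (.inl 0)).n + 4 * (v (.inl 1)).n + 16 * (v (.inr 0)).n + 64 * (v (.inr 1)).n, by
    have h0 := K4.n_lt (v (.inl 0))
    have h1 := K4.n_lt (v (.inl 1))
    have h2 := K4.n_lt (v (.inr 0))
    have h3 := K4.n_lt (v (.inr 1))
    omega⟩

def dec (j : Fin 256) : V4
  | .inl 0 => K4.ofN (j.1 % 4)
  | .inl 1 => K4.ofN (j.1 / 4 % 4)
  | .inr 0 => K4.ofN (j.1 / 16 % 4)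
  | .inr 1 => K4.ofN (j.1 / 64 % 4)

theorem dec_enc (v : V4) : dec (enc v) = v := by
  have h0 := K4.n_lt (v (.inl 0))
  have h1 := K4.n_lt (v (.inl 1))
  have h2 := K4.n_lt (v (.inr 0))
  have h3 := K4.n_lt (v (.inr 1))
  funext i
  rcases i with i | i <;> fin_cases i
  · show K4.ofN (_ % 4) = v (.inl 0)
    rw [← K4.ofN_n (v (.inl 0))]
    congr 1
    simp only [enc, K4.ofN_n]
    omega
  · show K4.ofN (_ / 4 % 4) = v (.inl 1)
    rw [← K4.ofN_n (v (.inl 1))]
    congr 1
    simp only [enc, K4.ofN_n]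
    omega
  · show K4.ofN (_ / 16 % 4) = v (.inr 0)
    rw [← K4.ofN_n (v (.inr 0))]
    congr 1
    simp only [enc, K4.ofN_n]
    omega
  · show K4.ofN (_ / 64 % 4) = v (.inr 1)
    rw [← K4.ofN_n (v (.inr 1))]
    congr 1
    simp only [enc, K4.ofN_n]
    omega

theorem enc_dec : ∀ j : Fin 256, enc (dec j) = j := by decide +kernel

abbrev Sp := Matrix.symplecticGroup (Fin 2) K4

open Matrix in
instance actSp : MulAction Sp (Fin 256) where
  smul A j := enc (A.1 *ᵥ dec j)
  one_smul j := by
    show enc ((1 : Matrix I4 I4 K4) *ᵥ dec j) = j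
    rw [Matrix.one_mulVec, enc_dec]
  mul_smul A B j := by
    show enc ((A.1 * B.1) *ᵥ dec j) = enc (A.1 *ᵥ dec (enc (B.1 *ᵥ dec j)))
    rw [dec_enc, Matrix.mulVec_mulVec]

open Matrix in
theorem smul_def (A : Sp) (j : Fin 256) : A • j = enc (A.1 *ᵥ dec j) := rfl

/-- the permutation representation of `Sp₄(4)` on the coded vectors -/
def sig : Sp →* Equiv.Perm (Fin 256) := MulAction.toPermHom Sp (Fin 256)

open Matrix in
theorem sig_apply (A : Sp) (j : Fin 256) : sig A j = enc (A.1 *ᵥ dec j) := rfl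

open Matrix in
theorem sig_inj : Function.Injective sig := by
  rw [injective_iff_map_eq_one]
  intro A hA
  apply Subtype.ext
  show A.1 = 1
  have h : ∀ v : V4, A.1 *ᵥ v = v := by
    intro v
    have := congrArg (fun p : Equiv.Perm (Fin 256) => dec (p (enc v))) hA
    simpa [sig_apply, dec_enc] using this
  ext i j
  have := congrFun (h (Pi.single j 1)) i
  rw [Matrix.mulVec_single_one] at this
  simpa [Matrix.one_apply, Pi.single_apply, eq_comm] using this

/-- multiplication by `ω` on the coded vectors -/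
def scal (j : Fin 256) : Fin 256 := enc (K4.w • dec j)

open Matrix in
theorem sig_scal (A : Sp) (j : Fin 256) : sig A (scal j) = scal (sig A j) := by
  rw [sig_apply, sig_apply, scal, scal, dec_enc, dec_enc, Matrix.mulVec_smul]

end Cfsg.Agent.Lib.Helper19.Sp4
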