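import Cfsg.Agent.Lib.Helper19.Hea.Main
import Cfsg.Agent.Lib.Helper19.OrdHe.Main
import Cfsg.Agent.Lib.Helper12.SpCard
import Cfsg.Agent.Lib.Helper19.Sp4.Abs
import Cfsg.Agent.Lib.Helper19.Sp4.CkS
import Cfsg.Agent.Lib.Helper19.Sp4.CkI
import Cfsg.Agent.Lib.Helper19.Sp4.CkA0
import Cfsg.Agent.Lib.Helper19.Sp4.CkA1
import Cfsg.Agent.Lib.Helper19.Sp4.CkA2
import Cfsg.Agent.Lib.Helper19.Sp4.CkA3
import Cfsg.Agent.Lib.Helper19.Sp4.CkA4
import Cfsg.Agent.Lib.Helper19.Sp4.CkA5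
import Cfsg.Agent.Lib.Helper19.Sp4.CkA6

/-! The point stabiliser of `He` on 2058 points has a subgroup of index two isomorphic to `Sp₄(4)`. -/

set_option autoImplicit false
set_option maxRecDepth 1000000

namespace Cfsg.Agent.Lib.Helper19.Sp4

open Cfsg.Agent.Lib.Helper19.TCS
open Cfsg.Agent.Lib.Helper19.TC2 (KW KW_mono mem_KW KW_nil)
open Cfsg.Agent.Lib.Helper19.Hea (cB sgw ψ hψ HH hH h1 h2 hsg)
open Cfsg.Agent.Lib.Helper19.PresHe (el)

theorem loop4 {f : ℕ → Bool} (h0 : loop f 0 64 = true) (h1 : loop f 64 64 = true)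
    (h2 : loop f 128 64 = true) (h3 : loop f 192 64 = true) : ∀ j < 256, f j = true := by
  intro j hj
  rcases Nat.lt_or_ge j 64 with h | h
  · exact loop_spec h0 j (by omega) (by omega)
  rcases Nat.lt_or_ge j 128 with h' | h'
  · exact loop_spec h1 j (by omega) (by omega)
  rcases Nat.lt_or_ge j 192 with h'' | h''
  · exact loop_spec h2 j (by omega) (by omega)
  · exact loop_spec h3 j (by omega) (by omega)

theorem okT : OKB cT (Fin.val : Fin 256 → ℕ) := by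
  intro x i hi
  exact chkI_spec (loop4 okT_0 okT_1 okT_2 okT_3 x.1 x.2) i hi

/-- the transvections (and the identity) as permutations of the 2058 points -/
def Tp (j : Fin 256) : Equiv.Perm (Fin cB.N) := (show Equiv.Perm (Fin cT.N) from sg okT j)

theorem Tp_apply (j : Fin 256) (x : Fin cB.N) : (Tp j x).1 = fB cT j.1 x.1 := rfl

theorem sgn_nodup : ((List.range 256).map (fun j => fB cT j 1934 + 4096 * fB cT j 1554)).Nodup := by
  decide +kernel

theorem Tp_inj : Function.Injective Tp := by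
  intro j k h
  have h1 : fB cT j.1 1934 = fB cT k.1 1934 := by
    have := congrArg (fun p : Equiv.Perm (Fin cB.N) => (p ⟨1934, by decide⟩).1) h
    exact this
  have h2 : fB cT j.1 1554 = fB cT k.1 1554 := by
    have := congrArg (fun p : Equiv.Perm (Fin cB.N) => (p ⟨1554, by decide⟩).1) h
    exact this
  apply Fin.ext
  apply List.inj_on_of_nodup_map sgn_nodup (List.mem_range.2 j.2) (List.mem_range.2 k.2)
  show fB cT j.1 1934 + 4096 * fB cT j.1 1554 = fB cT k.1 1934 + 4096 * fB cT k.1 1554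
  rw [h1, h2]

theorem okH : ∀ k < 7, ∀ x < 2058, app cB (selW sgw k) x = fB cH k x := by
  intro k hk x hx
  have key : ∀ k, loop (fun x => Nat.beq (app cB (selW sgw k) x) (fB cH k x)) 0 2058 = true →
      app cB (selW sgw k) x = fB cH k x := by
    intro k h
    have := loop_spec h x (Nat.zero_le _) (by omega)
    rwa [Nat.beq_eq] at this
  interval_cases k
  · exact key 0 okH_0
  · exact key 1 okH_1
  · exact key 2 okH_2
  · exact key 3 okH_3
  · exact key 4 okH_4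
  · exact key 5 okH_5
  · exact key 6 okH_6

theorem okA : ∀ k < 7, ∀ j < 256, ∀ x < 2058,
    fB cH k (fB cT j x) = fB cT (fB cR k j) (fB cH k x) := by
  intro k hk j hj x hx
  interval_cases k
  · exact chkC_spec (loop4 okA_0_0 okA_0_1 okA_0_2 okA_0_3 j hj) x hx
  · exact chkC_spec (loop4 okA_1_0 okA_1_1 okA_1_2 okA_1_3 j hj) x hx
  · exact chkC_spec (loop4 okA_2_0 okA_2_1 okA_2_2 okA_2_3 j hj) x hx
  · exact chkC_spec (loop4 okA_3_0 okA_3_1 okA_3_2 okA_3_3 j hj) x hx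
  · exact chkC_spec (loop4 okA_4_0 okA_4_1 okA_4_2 okA_4_3 j hj) x hx
  · exact chkC_spec (loop4 okA_5_0 okA_5_1 okA_5_2 okA_5_3 j hj) x hx
  · exact chkC_spec (loop4 okA_6_0 okA_6_1 okA_6_2 okA_6_3 j hj) x hx

theorem fR_lt (k j : ℕ) : fB cR k j < 256 := Nat.lt_succ_of_le (fld_le _ _ _ _)

theorem hsgk (k : ℕ) : ∀ l ∈ selW sgw k, l < 7 := by
  rcases selW_prop sgw k with h | h
  · exact hsg _ h
  · rw [h]; simp

theorem conj_gen (k : ℕ) (hk : k < 7) (j : Fin 256) :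
    ψ (evn el (selW sgw k)) * Tp j = Tp ⟨fB cR k j.1, fR_lt k j.1⟩ * ψ (evn el (selW sgw k)) := by
  ext x
  rw [Equiv.Perm.mul_apply, Equiv.Perm.mul_apply, psi_evn ψ hψ _ (hsgk k), Tp_apply, Tp_apply,
    psi_evn ψ hψ _ (hsgk k), okH k hk _ (okT j x.1 x.2).1, okH k hk _ x.2]
  exact okA k hk j.1 j.2 x.1 x.2

theorem nz_gen (k : ℕ) (hk : k < 7) : ψ (evn el (selW sgw k)) ∈ nzr Tp Tp_inj := by
  intro j
  refine ⟨⟨fB cR k j.1, fR_lt k j.1⟩, ?_⟩
  rw [conj_gen k hk j]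
  group

theorem sgw_sel : ∀ w ∈ sgw, ∃ k < 7, w = selW sgw k := by decide +kernel

theorem HH_le : HH ≤ (nzr Tp Tp_inj).comap ψ := by
  rw [hH, Subgroup.closure_le]
  intro s hs
  obtain ⟨w, hw, rfl⟩ := h1 s hs
  obtain ⟨k, hk, rfl⟩ := sgw_sel w hw
  exact nz_gen k hk

/-- the action of the point stabiliser on the 256 vectors -/
noncomputable def rhoH : HH →* Equiv.Perm (Fin 256) :=
  (rho Tp Tp_inj).comp ((ψ.comp HH.subtype).codRestrict (nzr Tp Tp_inj) (fun x => HH_le x.2))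

theorem hel_mem (k : ℕ) : evn el (selW sgw k) ∈ HH := by
  rcases selW_prop sgw k with h | h
  · rw [hH]; exact h2 _ h
  · rw [h]; simp [evn]

/-- the generators of the point stabiliser -/
noncomputable def hel (k : ℕ) : HH := ⟨evn el (selW sgw k), hel_mem k⟩

theorem rhoH_hel : ∀ k < 7, ∀ j : Fin 256, (rhoH (hel k) j).1 = fB cR k j.1 := by
  intro k hk j
  have : rhoH (hel k) j = ⟨fB cR k j.1, fR_lt k j.1⟩ :=
    rho_eq Tp Tp_inj _ j _ (conj_gen k hk j)
  rw [this]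

theorem hhw : ∀ w ∈ hw, ∀ k ∈ w, k < 7 := by decide

theorem hhwk (k : ℕ) : ∀ l ∈ selW hw k, l < 7 := by
  rcases selW_prop hw k with h | h
  · exact hhw _ h
  · rw [h]; simp

/-- the ten involutions generating the subgroup of index two -/
noncomputable def pel (k : ℕ) : Equiv.Perm (Fin 256) := rhoH (evn hel (selW hw k))

theorem pel_apply : ∀ k < 10, ∀ j : Fin 256, (pel k j).1 = fB cP k j.1 := by
  intro k hk j
  have h1 : (pel k j).1 = app cR (selW hw k) j.1 :=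
    psi_evn (B := cR) rhoH rhoH_hel _ (hhwk k) j
  rw [h1]
  have := loop_spec (loop_spec okS1 k (Nat.zero_le _) (by omega)) j.1 (Nat.zero_le _)
    (by have := j.2; omega)
  rwa [Nat.beq_eq] at this

/-- the ten symplectic matrices -/
def spm (k : Fin 10) : Sp := ⟨mat (selN mc k.1), by
  rw [SymplecticGroup.mem_iff]; exact mat_mem k⟩

theorem pel_eq_sig (k : ℕ) (hk : k < 10) : pel k = sig (spm ⟨k, hk⟩) := by
  ext j
  rw [pel_apply k hk j, sig_apply]
  exact (mat_act ⟨k, hk⟩ j).symm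

theorem card_A : 979200 ≤ Nat.card (KW pel ws0) := by
  have hJ1 : ∀ w ∈ ws1, ∀ k ∈ w, k < 10 := fun w hw => hJ0 w (hs1 w hw)
  have hJ2 : ∀ w ∈ ws2, ∀ k ∈ w, k < 10 := fun w hw => hJ1 w (hs2 w hw)
  have hJ3 : ∀ w ∈ ws3, ∀ k ∈ w, k < 10 := fun w hw => hJ2 w (hs3 w hw)
  have s0 : 255 * Nat.card (KW pel ws1) ≤ Nat.card (KW pel ws0) :=
    lb_step (B := cP) (el := pel) pel_apply ws0 ws1 hJ0 hs1 1 (by decide) hf1 pa0 255 hl0 hn0
  have s1 : 64 * Nat.card (KW pel ws2) ≤ Nat.card (KW pel ws1) :=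
    lb_step (B := cP) (el := pel) pel_apply ws1 ws2 hJ1 hs2 16 (by decide) hf2 pa1 64 hl1 hn1
  have s2 : 15 * Nat.card (KW pel ws3) ≤ Nat.card (KW pel ws2) :=
    lb_step (B := cP) (el := pel) pel_apply ws2 ws3 hJ2 hs3 4 (by decide) hf3 pa2 15 hl2 hn2
  have s3 : 4 * Nat.card (KW pel []) ≤ Nat.card (KW pel ws3) :=
    lb_step (B := cP) (el := pel) pel_apply ws3 [] hJ3 (by simp) 64 (by decide) (by simp) pa3 4 hl3 hn3
  have s4 : 0 < Nat.card (KW pel []) := Nat.card_pos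
  omega

theorem evn_mem {G : Type*} [Group G] (K : Subgroup G) (f : ℕ → G) (L : ℕ) (hf : ∀ k < L, f k ∈ K)
    (w : List ℕ) (hw : ∀ k ∈ w, k < L) : evn f w ∈ K := by
  apply Subgroup.list_prod_mem
  intro x hx
  rw [List.mem_map] at hx
  obtain ⟨k, hk, rfl⟩ := hx
  exact hf k (hw k hk)

theorem A_le_sig : KW pel ws0 ≤ sig.range := by
  unfold KW
  rw [Subgroup.closure_le]
  rintro _ ⟨w, hw, rfl⟩
  exact evn_mem sig.range pel 10 (fun k hk => ⟨_, (pel_eq_sig k hk).symm⟩) w (hJ0 w hw)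

theorem A_le_rho : KW pel ws0 ≤ rhoH.range := by
  unfold KW
  rw [Subgroup.closure_le]
  rintro _ ⟨w, hw, rfl⟩
  exact evn_mem rhoH.range pel 10 (fun k _ => ⟨_, rfl⟩) w (hJ0 w hw)

theorem frob_not : rhoH (hel 5) ∉ sig.range := by
  rintro ⟨A, hA⟩
  have h := sig_scal A 1
  rw [hA, scal_one] at h
  have h1 : rhoH (hel 5) 1 = 1 := Fin.ext (by
    rw [rhoH_hel 5 (by decide) 1]; exact r5_one)
  have h2 : rhoH (hel 5) 2 = 3 := Fin.ext (by
    rw [rhoH_hel 5 (by decide) 2]; exact r5_two)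
  rw [h1, h2, scal_one] at h
  exact absurd h (by decide)

theorem card_Sp4 : Nat.card Sp = 979200 := by
  rw [Cfsg.Agent.Lib.Helper12.card_Sp K4.card 2]
  decide

instance finHe : Finite Cfsg.Spor.He :=
  Nat.finite_of_card_ne_zero (by rw [Cfsg.Agent.Lib.Helper19.OrdHe.card_eq]; decide)

theorem card_HH : Nat.card HH = 2 * 979200 := by
  have h := HH.index_mul_card
  rw [Cfsg.Agent.Lib.Helper19.Hea.index_eq, Cfsg.Agent.Lib.Helper19.OrdHe.card_eq] at h
  omega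

theorem main : ∃ N : Subgroup HH, N.Normal ∧ N.index = 2 ∧ Nonempty (N ≃* Sp) :=
  index_two_of_count rhoH sig sig_inj 979200 (by decide) card_Sp4 card_HH (KW pel ws0) card_A
    A_le_sig A_le_rho (hel 5) frob_not

end Cfsg.Agent.Lib.Helper19.Sp4
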