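import Cfsg.Agent.Lib.Helper19.Sp4.Main
import Cfsg.Agent.S1695

/-! The permutation group of degree 2058 and its point stabiliser. -/

set_option autoImplicit false
set_option maxRecDepth 1000000

namespace Cfsg.Agent.Lib.Helper19.Sp4

open Cfsg.Agent.Lib.Helper19.TCS

section link
variable {P : Par} {B : ParB} {FIN LAB L : ℕ}
variable {G : Type*} [Group G] {H : Subgroup G} {el : ℕ → G} (ψ : G →* Equiv.Perm (Fin B.N))
  (z : Fin B.N)

theorem main_stab (hz : z.1 = 0) (hel : ∀ k < L, el k * el k = 1)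
    (hψ : ∀ k < L, ∀ i : Fin B.N, (ψ (el k) i).1 = fB B k i.1)
    (hcov : ∀ x : G, ∃ a < P.M, tb P.AL a = true ∧ RC H x (rep P el a))
    (hL : ∀ b < P.M, chkLS P B FIN L b = true)
    (hfix : ∀ h ∈ H, ψ h z = z) : ∀ x, ψ x z = z → x ∈ H := by
  have hlink := link ψ z hz hel hψ hL
  intro x hx
  obtain ⟨a, ha, hal, hr⟩ := hcov x
  have h1 : (ψ (rep P el a))⁻¹ z = z := by
    have e : rep P el a = (x * (rep P el a)⁻¹)⁻¹ * x := by group
    have h2 := hfix _ (H.inv_mem hr)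
    rw [e, map_mul, mul_inv_rev, Equiv.Perm.mul_apply, Equiv.Perm.inv_eq_iff_eq,
      Equiv.Perm.inv_eq_iff_eq, hx, h2]
  have h3 := hlink a ha
  rw [h1, hz] at h3
  have h4 := hL a ha
  unfold chkLS at h4
  rw [Bool.and_eq_true] at h4
  have h5 := h4.2
  unfold chkS at h5
  rw [hal] at h5
  simp only [cond_true] at h5
  cases h0 : Nat.beq a 0
  · rw [h0, ← h3] at h5
    simp at h5
  · rw [Nat.beq_eq] at h0
    subst h0
    unfold RC at hr
    rw [rep_zero] at hr
    simpa using hr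

theorem main_trans (hz : z.1 = 0) (hel : ∀ k < L, el k * el k = 1)
    (hψ : ∀ k < L, ∀ i : Fin B.N, (ψ (el k) i).1 = fB B k i.1)
    (hL : ∀ b < P.M, chkLS P B FIN L b = true)
    (hT : ∀ i < B.N, chkT P B FIN LAB i = true) : ∀ i, ∃ x, ψ x z = i := by
  have hlink := link ψ z hz hel hψ hL
  intro i
  have h := hT i.1 i.2
  unfold chkT at h
  rw [Bool.and_eq_true, blt_iff, Nat.beq_eq] at h
  refine ⟨(rep P el (lab P LAB i.1))⁻¹, ?_⟩
  rw [map_inv]
  apply Fin.ext
  rw [hlink _ h.1, h.2]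

end link

theorem perm_real {G : Type*} [Group G] {X : Type*} (ψ : G →* Equiv.Perm X)
    (hinj : Function.Injective ψ) (z : X) (H : Subgroup G) (hfix : ∀ h ∈ H, ψ h z = z)
    (hstab : ∀ x, ψ x z = z → x ∈ H) (htr : ∀ i, ∃ x, ψ x z = i) :
    MulAction.IsPretransitive ψ.range X ∧ Nonempty (H ≃* MulAction.stabilizer ψ.range z) := by
  constructor
  · constructor
    intro x y
    obtain ⟨a, rfl⟩ := htr x
    obtain ⟨b, rfl⟩ := htr y
    refine ⟨⟨ψ (b * a⁻¹), ⟨_, rfl⟩⟩, ?_⟩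
    show ψ (b * a⁻¹) (ψ a z) = ψ b z
    rw [← Equiv.Perm.mul_apply, ← map_mul]
    simp
  · let f : H →* MulAction.stabilizer ψ.range z :=
      { toFun := fun h => ⟨⟨ψ h.1, ⟨_, rfl⟩⟩, hfix h.1 h.2⟩
        map_one' := by
          apply Subtype.ext; apply Subtype.ext
          exact map_one ψ
        map_mul' := by
          intro a b
          apply Subtype.ext; apply Subtype.ext
          exact map_mul ψ a.1 b.1 }
    refine ⟨MulEquiv.ofBijective f ⟨?_, ?_⟩⟩
    · intro a b hab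
      apply Subtype.ext
      apply hinj
      exact congrArg (fun t => t.1.1) hab
    · rintro ⟨⟨_, ⟨g, rfl⟩⟩, hg⟩
      exact ⟨⟨g, hstab g hg⟩, rfl⟩

open Cfsg.Agent.Lib.Helper19.Hea in
theorem stabH : ∀ x, ψ x z = z → x ∈ HH :=
  main_stab (P := cert) (FIN := tFIN) (L := 7) ψ z rfl
    (fun k _ => Cfsg.Agent.Lib.Helper19.PresHe.el_sq k) hψ hcov (loop_all link_ok) hfix

open Cfsg.Agent.Lib.Helper19.Hea in
theorem transH : ∀ i, ∃ x, ψ x z = i :=
  main_trans (P := cert) (FIN := tFIN) (LAB := tLAB) (L := 7) ψ z rfl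
    (fun k _ => Cfsg.Agent.Lib.Helper19.PresHe.el_sq k) hψ (loop_all link_ok) (loop_all lab_ok)

open Cfsg.Agent.Lib.Helper19.Hea in
theorem psi_inj : Function.Injective ψ := by
  have := Cfsg.Agent.S1695.result.1
  rw [← MonoidHom.ker_eq_bot_iff]
  rcases ψ.normal_ker.eq_bot_or_eq_top with h | h
  · exact h
  · exfalso
    obtain ⟨x, hx⟩ := transH ⟨1, by decide⟩
    have : x ∈ ψ.ker := by rw [h]; trivial
    rw [MonoidHom.mem_ker] at this
    rw [this] at hx
    exact absurd (congrArg Fin.val hx) (by decide)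

open Cfsg.Agent.Lib.Helper19.Hea in
theorem real2058 : ∃ H : Subgroup (Equiv.Perm (Fin 2058)), Cfsg.IsHe H ∧
    MulAction.IsPretransitive H (Fin 2058) ∧
    ∃ N : Subgroup (MulAction.stabilizer H (0 : Fin 2058)), N.index = 2 ∧ Nonempty (N ≃* Sp) := by
  obtain ⟨htr, ⟨e⟩⟩ := perm_real ψ psi_inj z HH hfix stabH transH
  obtain ⟨N, _, hi, ⟨eN⟩⟩ := main
  have e0 : Cfsg.Spor.He ≃* ψ.range := MonoidHom.ofInjective psi_inj
  refine ⟨ψ.range, ⟨?_, ?_⟩, htr, N.map e.toMonoidHom, ?_, ⟨?_⟩⟩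
  · have := Cfsg.Agent.S1695.result.1
    exact e0.isSimpleGroup_congr.1 inferInstance
  · exact (Nat.card_congr e0.toEquiv).symm.trans Cfsg.Agent.S1695.result.2
  · rw [← hi]
    exact Subgroup.index_map_equiv N e
  · exact (e.subgroupMap N).symm.trans eN

end Cfsg.Agent.Lib.Helper19.Sp4
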